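import Cfsg.Agent.Lib.Helper54.BGTexts
import Cfsg.Agent.Lib.Helper54.BGTexts2

/-!
# Ladder T16 (B-G section 16: Types I and II, Theorem I): shared definitions
-/

set_option autoImplicit false

namespace Cfsg.Agent.Lib.Helper54.T16

open Cfsg Subgroup

universe u

variable {G : Type u} [Group G] [Finite G]

/-- `K* = C_{M_σ}(K)` -/
abbrev Ks (M K : Subgroup G) : Subgroup G := sigmaCore M ⊓ centralizer (K : Set G)

/-- The configuration of case (2) of B-G 15.7 for a maximal subgroup `M = U M_σ` (`K = 1`):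
`M_σ = P × C`, `P` a nonabelian `p`-group, `C` cyclic of order prime to `p`. -/
structure Cfg (M U P C : Subgroup G) (p : ℕ) : Prop where
  hp : p.Prime
  dec : IsSigmaDecomposition M ⊥ U
  PC : sigmaCore M = P ⊔ C
  Pp : IsPGroup p P
  Cp : (Nat.card C).Coprime p
  comm : C ≤ centralizer (P : Set G)
  Pn : M ≤ normalizer (P : Set G)
  Cn : M ≤ normalizer (C : Set G)
  Pna : ¬ IsMulCommutative P
  Ccyc : IsCyclic C
  exx : ∃ x ∈ P, x ≠ 1 ∧ ¬ centralizer ({x} : Set G) ≤ M
  cent : ∀ c ∈ C, c ≠ 1 → centralizer ({c} : Set G) ≤ M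
  der : ⁅M, M⁆ = fittingOf M

end Cfsg.Agent.Lib.Helper54.T16
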